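-- Team project OMG (S2415, helper94), package [LOM] (helper10):
-- the Levi image of `SL_k` in the minus-type isometry group lies in `Ω`.
import Mathlib
import Cfsg.Agent.Lib.Helper94.OMG.Defs
import Cfsg.Agent.Lib.Helper14.Levi

set_option autoImplicit false
open scoped Matrix MatrixGroups

namespace Cfsg.Agent.Lib.Helper10.OMG

open Cfsg.Agent.Lib.Helper94.OMG

universe u

/-- [LOM] -/
theorem pkgLOm : PkgLOm.{u} := by
  intro F _ _ k a b hk g
  have h1 : Cfsg.Agent.Lib.Helper14.leviIsom k F (Matrix.SpecialLinearGroup.toGL g) ∈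
      Cfsg.Omega F (Cfsg.quadFormPlus k F) := by
    apply Cfsg.Agent.Lib.Helper14.leviIsom_mem_omega_of_det
    · intro h2
      omega
    · apply Units.ext
      simp
  exact Cfsg.Agent.Lib.Helper14.map_mem_commutator' (Em k F a b) h1

end Cfsg.Agent.Lib.Helper10.OMG
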